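import Cfsg.Agent.H238.LocRow
import Cfsg.Agent.H831.LP.Has5
import Cfsg.Agent.CpAutTwD.Row
import Cfsg.Agent.SignalizersComponents.SLQuasisimple

/-!
# The exceptional groups over the field of two elements are not of local characteristic `p`, `p` odd (helper23)

* `has_twD4` : an element of order three of `³D₄(2)` commuting with an `SL₂(8)`;
* `two_row` : `F₄(2)`, `E₆(2)`, `E₇(2)`, `E₈(2)`, `²E₆(2)`, `³D₄(2)` with `p ^ 4 ∣ |K|`: not `Loc p K`.
-/

set_option autoImplicit false
set_option linter.unusedSectionVars false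

namespace Cfsg.Agent.H23.LP

universe u

open scoped commutatorElement
open Subgroup Cfsg Cfsg.Lie
open Cfsg.Agent.H239.CharPLocal (CP)
open Cfsg.Agent.H238 (Loc not_has)
open Cfsg.Agent.H238.LocTwo (Has)
open Cfsg.Agent.BpExc Cfsg.Agent.BpExc.RowsUntw Cfsg.Agent.BpExc.FamField Cfsg.Agent.Nodes.RGDChev

/-- the range of a homomorphism from a perfect group is perfect -/
theorem commutator_range {A B : Type*} [Group A] [Group B] (f : A →* B) (hA : commutator A = ⊤) :
    ⁅f.range, f.range⁆ = f.range := by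
  rw [MonoidHom.range_eq_map, ← Subgroup.map_commutator]
  congr 1

/-- an element of order three of `³D₄(2)` commuting with an `SL₂(8)` -/
theorem has_twD4 (F : Type) [Field F] [Fintype F] (hF : Fintype.card F = 2 ^ 3) : Has 3 ↥(twistedD4 F 2) := by
  have := CpAutTwD.Frm.charP2 hF
  have : Fact (Nat.Prime 2) := ⟨Nat.prime_two⟩
  let φ : F →+* F := frobenius F 2
  have hφ : ∀ x, φ x = x ^ 2 := fun x => rfl
  refine ⟨CpAutTwD.Frm.tt hφ hF, (CpAutTwD.Frm.psiX hφ).range, ?_, ?_, ?_, ?_, ?_⟩
  · rw [← CpAutTwD.Frm.orderOf_tt hφ hF, pow_orderOf_eq_one]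
  · intro h
    have h1 := CpAutTwD.Frm.orderOf_tt hφ hF
    rw [h, orderOf_one] at h1
    omega
  · rintro _ ⟨g, rfl⟩
    rw [mem_centralizer_singleton_iff]
    exact (CpAutTwD.Frm.tt_comm hφ hF g).symm
  · exact commutator_range _ (SignalizersComponents.SLQuasisimple.isQuasisimple_two (F := F)
      (by rw [Nat.card_eq_fintype_card, hF]; norm_num)).1.commutator_eq_top
  · intro h
    have h1 : CpAutTwD.Frm.psiX hφ (Cfsg.Agent.ChevalleyStructure.SL2Hom.up 1) = 1 := by
      have : CpAutTwD.Frm.psiX hφ (Cfsg.Agent.ChevalleyStructure.SL2Hom.up 1) ∈ (CpAutTwD.Frm.psiX hφ).range := ⟨_, rfl⟩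
      rwa [h, mem_bot] at this
    have h2 := CpAutTwD.Frm.psiX_injective hφ hF (h1.trans (map_one _).symm)
    have h3 := congrArg (fun m : Matrix.SpecialLinearGroup (Fin 2) F => m.1 0 1) h2
    have h4 : (1 : F) = 0 := h3
    exact one_ne_zero h4

section Row

variable {K : Type u} [Group K] [Finite K] {p : ℕ} [hpp : Fact p.Prime]

/-- the primes whose fourth power divides a given number -/
theorem mem_of_pow_four {L : List (ℕ × ℕ)} (hL : ∀ x ∈ L, x.1.Prime) {N : ℕ}
    (hN : N = (L.map fun x => x.1 ^ x.2).prod) (h : p ^ 4 ∣ N) {S : List ℕ}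
    (hS : ∀ x ∈ L, x.1 ^ 4 ∣ N → x.1 ∈ S) : p ∈ S := by
  have h1 : p ∣ (L.map fun x => x.1 ^ x.2).prod := by rw [← hN]; exact (dvd_pow_self p (by norm_num)).trans h
  obtain ⟨y, hy, hpy⟩ := (Prime.dvd_prod_iff (Nat.prime_iff.1 hpp.out)).1 h1
  obtain ⟨x, hx, rfl⟩ := List.mem_map.1 hy
  have h2 : p = x.1 := (Nat.prime_dvd_prime_iff_eq hpp.out (hL x hx)).1 (hpp.out.dvd_of_dvd_pow hpy)
  rw [h2] at h ⊢
  exact hS x hx h

/-- **The exceptional groups over the field of two elements.** -/
theorem two_row (hp2 : p ≠ 2) (h4 : p ^ 4 ∣ Nat.card K)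
    (hK : (∃ (F : Type) (_ : Field F) (_ : Fintype F), Fintype.card F = 2 ∧
      (Nonempty (K ≃* Lie.chevF4.group F) ∨ Nonempty (K ≃* Lie.chevE6.group F) ∨ Nonempty (K ≃* Lie.chevE7.group F) ∨
        Nonempty (K ≃* Lie.chevE8.group F))) ∨
    (∃ (F : Type) (_ : Field F) (_ : Fintype F), Fintype.card F = 2 ^ 2 ∧ Nonempty (K ≃* Lie.twistedE6 F 2)) ∨
    (∃ (F : Type) (_ : Field F) (_ : Fintype F), Fintype.card F = 2 ^ 3 ∧ Nonempty (K ≃* Lie.twistedD4 F 2)))
    (hl : Loc p K) : False := by
  have FT : ∀ (X : Type) [Group X] [Finite X], Odd (Nat.card X) → Group.IsSolvable X := fun X _ _ hX => S0205.result hX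
  have : Fact (Nat.Prime 2) := ⟨Nat.prime_two⟩
  rcases hK with ⟨F, _, _, hF, h1⟩ | ⟨F, _, _, hF, ⟨e⟩⟩ | ⟨F, _, _, hF, ⟨e⟩⟩
  · have hc : CharP F 2 := H238.charP_two (n := 1) (by rw [hF]; rfl) one_ne_zero
    rcases h1 with ⟨⟨e⟩⟩ | ⟨⟨e⟩⟩ | ⟨⟨e⟩⟩ | ⟨⟨e⟩⟩
    · have hN : Nat.card K = 3311126603366400 := by
        rw [Nat.card_congr e.toEquiv, (OrdDiv.table.{0}).f4 F 2 hF]
        norm_num
      rw [hN] at h4
      have h5 := mem_of_pow_four (L := [(2, 24), (3, 6), (5, 2), (7, 2), (13, 1), (17, 1)]) (by simp; norm_num)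
        (by decide +kernel) h4 (S := [2, 3]) (by decide +kernel)
      obtain rfl : p = 3 := by simpa [hp2] using h5
      have := Finite.of_equiv K e.toEquiv
      exact not_has FT (RowsN.hasSplit f4T F (S1054.result chevF4 (by simp)).1) hp2 (hl.congr e) (H238.LocTwo.has_f4 F)
    · have hN : Nat.card K = 214841575522005575270400 := by
        have := (OrdDiv.table.{0}).e6 F 2 hF
        rw [Nat.card_congr e.toEquiv]
        norm_num at this ⊢
        exact this
      rw [hN] at h4
      have h5 := mem_of_pow_four (L := [(2, 36), (3, 6), (5, 2), (7, 3), (13, 1), (17, 1), (31, 1), (73, 1)])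
        (by simp; norm_num) (by decide +kernel) h4 (S := [2, 3]) (by decide +kernel)
      obtain rfl : p = 3 := by simpa [hp2] using h5
      have := Finite.of_equiv K e.toEquiv
      exact not_has FT (RowsN.hasSplit e6T F (S1054.result chevE6 (by simp)).1) hp2 (hl.congr e) (H238.LocTwo.has_e6 F).1
    · have hN : Nat.card K = 7997476042075799759100487262680802918400 := by
        have := (OrdDiv.table.{0}).e7 F 2 hF
        rw [Nat.card_congr e.toEquiv]
        norm_num at this ⊢
        exact this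
      rw [hN] at h4
      have h5 := mem_of_pow_four (L := [(2, 63), (3, 11), (5, 2), (7, 3), (11, 1), (13, 1), (17, 1), (19, 1), (31, 1),
        (43, 1), (73, 1), (127, 1)]) (by simp; norm_num) (by decide +kernel) h4 (S := [2, 3]) (by decide +kernel)
      obtain rfl : p = 3 := by simpa [hp2] using h5
      have := Finite.of_equiv K e.toEquiv
      exact not_has FT (RowsN.hasSplit e7T F (S1054.result chevE7 (by simp)).1) hp2 (hl.congr e) (H238.LocTwo.has_e7 F).1
    · have hN : Nat.card K = 337804753143634806261388190614085595079991692242467651576160959909068800000 := by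
        rw [Nat.card_congr e.toEquiv, (OrdDiv.table.{0}).e8 F 2 hF]
        norm_num
      rw [hN] at h4
      have h5 := mem_of_pow_four (L := [(2, 120), (3, 13), (5, 5), (7, 4), (11, 2), (13, 2), (17, 2), (19, 1), (31, 2),
        (41, 1), (43, 1), (73, 1), (127, 1), (151, 1), (241, 1), (331, 1)]) (by simp; norm_num) (by decide +kernel) h4
        (S := [2, 3, 5, 7]) (by decide +kernel)
      have := Finite.of_equiv K e.toEquiv
      have hs := RowsN.hasSplit e8T F (S1054.result chevE8 (by simp)).1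
      have h6 : p = 3 ∨ p = 5 ∨ p = 7 := by simpa [hp2] using h5
      rcases h6 with rfl | rfl | rfl
      · exact not_has FT hs hp2 (hl.congr e) (H238.LocTwo.has_e8 F).1
      · exact not_has FT hs hp2 (hl.congr e) (H831.LP.has5_e8 F)
      · exact not_has FT hs hp2 (hl.congr e) (H238.LocTwo.has_e8 F).2
  · have hN : Nat.card K = 76532479683774853939200 := by
      have := (OrdDiv.table.{0}).te6 F 2 Nat.prime_two.isPrimePow hF
      rw [Nat.card_congr e.toEquiv]
      norm_num at this ⊢
      omega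
    rw [hN] at h4
    have h5 := mem_of_pow_four (L := [(2, 36), (3, 9), (5, 2), (7, 2), (11, 1), (13, 1), (17, 1), (19, 1)])
      (by simp; norm_num) (by decide +kernel) h4 (S := [2, 3]) (by decide +kernel)
    obtain rfl : p = 3 := by simpa [hp2] using h5
    have := H238.charP_two hF two_ne_zero
    have := Finite.of_equiv K e.toEquiv
    exact not_has FT (FixBN.ReeSplit.hasSplit_of_isTwistedE6D4Char ⟨F, inferInstance, inferInstance, inferInstance, 2,
      Nat.prime_two.isPrimePow, Or.inl ⟨hF, ⟨MulEquiv.refl _⟩⟩⟩) hp2 (hl.congr e) (H238.LocTwo.has_twE6 F)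
  · have hN : Nat.card K = 211341312 := by
      have := (OrdDiv.table.{0}).td4 F 2 Nat.prime_two.isPrimePow hF
      rw [Nat.card_congr e.toEquiv, this]
      norm_num
    rw [hN] at h4
    have h5 := mem_of_pow_four (L := [(2, 12), (3, 4), (7, 2), (13, 1)])
      (by simp; norm_num) (by decide +kernel) h4 (S := [2, 3]) (by decide +kernel)
    obtain rfl : p = 3 := by simpa [hp2] using h5
    have := H238.charP_two hF three_ne_zero
    have := Finite.of_equiv K e.toEquiv
    exact not_has FT (FixBN.ReeSplit.hasSplit_of_isTwistedE6D4Char ⟨F, inferInstance, inferInstance, inferInstance, 2,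
      Nat.prime_two.isPrimePow, Or.inr ⟨hF, ⟨MulEquiv.refl _⟩⟩⟩) hp2 (hl.congr e) (has_twD4 F hF)

end Row

end Cfsg.Agent.H23.LP
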